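import Cfsg.Agent.H6.QO.Frame
import Cfsg.Agent.H109.US.Two
import Cfsg.Agent.H133.USixMult
import Cfsg.Agent.ClassicalGeometry.PSUAutCount
import Cfsg.Agent.S2091
import Cfsg.Agent.S0283

/-!
# The row `U₆(2)` of the quasisimple Ore conjecture: the glue (helper184; F3 of S2491, S2492)

* `P g` : all lifts of `g : SU₆(2)` to every perfect central 2-extension of `SU₆(2)` are commutators;
* `P_aut`, `P_conj`, `P_inv` : `P` is invariant under automorphisms, conjugation by `GU₆(2)`, inversion;
* `row_of` : `P g` for all noncentral `g` gives `RowN (PSU 6 F 2)`;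
* `row_every` : the same for every field with four elements in every universe.
-/

set_option autoImplicit false

namespace Cfsg.Agent.H184.US

open Subgroup Cfsg Cfsg.Agent.H51.Mult Cfsg.Agent.H777.Ore Cfsg.Agent.H6.QO
  Cfsg.Agent.LieClassical.HermSiegel Cfsg.Agent.ClassicalGeometry.PSUAutCount
open Cfsg.Agent.ClassicalGeometry.UnitAutBasic (pr pr_surjective)
open scoped commutatorElement

universe u

section P

variable {F : Type} [Field F] [Fintype F]

/-- all lifts of `g` to perfect central 2-extensions of `SU₆(2)` are commutators -/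
def P (g : SU 6 F 2) : Prop :=
  ∀ (L : Type) [Group L] [Finite L] (φ : L →* SU 6 F 2), PCE φ → IsPGroup 2 φ.ker → ∀ y : L, φ y = g → IsC y

theorem P_aut (α : SU 6 F 2 ≃* SU 6 F 2) {g : SU 6 F 2} (h : P (α g)) : P g := by
  intro L _ _ φ hφ h2 y hy
  have hker : (α.toMonoidHom.comp φ).ker = φ.ker := by
    ext x
    rw [MonoidHom.mem_ker, MonoidHom.mem_ker]
    exact map_eq_one_iff α α.injective
  refine h L (α.toMonoidHom.comp φ) (hφ.congr α) ?_ y ?_
  · rw [hker]; exact h2
  · show α (φ y) = α g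
    rw [hy]

theorem P_conj (c : GU 6 F 2) (g g' : SU 6 F 2) (hc : gm c * mat g = mat g' * gm c) (h : P g') : P g := by
  refine P_aut (guConj c) ?_
  have e : guConj c g = g' := by
    apply mat_injective
    show gm c * mat g * gm c⁻¹ = mat g'
    rw [hc, Matrix.mul_assoc, gm_mul_inv, Matrix.mul_one]
  rw [e]; exact h

theorem P_inv {g : SU 6 F 2} (h : P g) : P g⁻¹ := by
  intro L _ _ φ hφ h2 y hy
  have h1 : φ y⁻¹ = g := by rw [map_inv, hy, inv_inv]
  have h3 := (h L φ hφ h2 y⁻¹ h1).inv
  rwa [inv_inv] at h3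

theorem P_isConj {g g' : SU 6 F 2} (hc : IsConj g g') (h : P g') : P g := by
  obtain ⟨c, hc⟩ := isConj_iff.1 hc
  refine P_aut (MulAut.conj c) ?_
  rw [MulAut.conj_apply, hc]; exact h

end P

section row

variable {F : Type} [Field F] [Fintype F] (hF : Fintype.card F = 2 ^ 2)

include hF

/-- the glue -/
theorem row_of (h : ∀ g : SU 6 F 2, g ∉ center (SU 6 F 2) → P g) : RowN (PSU 6 F 2) := by
  have hF4 : Fintype.card F = 4 := by rw [hF]; norm_num
  obtain ⟨hpr, hpr3⟩ := Cfsg.Agent.H133.USixMult.pce_pr hF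
  have hA := Cfsg.Agent.S2091.result hF4
  have hfin : Finite (PSU 6 F 2) := inferInstance
  have hsimple : IsSimpleGroup (PSU 6 F 2) := Cfsg.Agent.S0283.result hF 6 (by norm_num) (by norm_num)
  obtain ⟨⟨Γ, _, _, σ, hσ, ⟨e⟩⟩, -⟩ := hA
  have hσ' : PCE σ := PCE.of_stem hσ hpr.perf_base
  have hcard : Nat.card σ.ker = Nat.card (Multiplicative (ZMod 3 × ZMod 2 × ZMod 2)) := Nat.card_congr e.toEquiv
  refine RowN.of_univ (Cfsg.Agent.S2091.result hF4) hσ' hcard ?_
  obtain ⟨θ, hθ⟩ := H990.TC.exists_surj_of_card (Cfsg.Agent.S2091.result hF4) hσ' hcard hpr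
  have h12 : Nat.card σ.ker = 12 := by
    rw [hcard, Nat.card_congr Multiplicative.toAdd]
    simp
  -- the kernel of `θ` is central
  have hcen : θ.ker ≤ center Γ := by
    have hn : (θ.ker.map σ).Normal := Subgroup.Normal.map inferInstance σ hσ'.surj
    rcases hn.eq_bot_or_eq_top with h1 | h1
    · refine le_trans ?_ hσ'.cen
      rw [← Subgroup.map_eq_bot_iff]; exact h1
    · exfalso
      -- then `Γ = θ.ker * Z`, hence `Γ = [Γ, Γ] ≤ θ.ker`
      have h2 : ∀ x : Γ, ∃ n ∈ θ.ker, ∃ z ∈ center Γ, x = n * z := by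
        intro x
        have h3 : σ x ∈ θ.ker.map σ := by rw [h1]; exact mem_top _
        obtain ⟨n, hn1, hn2⟩ := h3
        refine ⟨n, hn1, n⁻¹ * x, hσ'.cen ?_, by group⟩
        rw [MonoidHom.mem_ker, map_mul, map_inv, hn2, inv_mul_cancel]
      have h4 : commutator Γ ≤ θ.ker := by
        rw [commutator_def, commutator_le]
        intro a _ b _
        obtain ⟨n, hn, z, hz, rfl⟩ := h2 a
        obtain ⟨m, hm, w, hw, rfl⟩ := h2 b
        have hn' : θ n = 1 := hn
        have hm' : θ m = 1 := hm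
        rw [MonoidHom.mem_ker, map_commutatorElement, map_mul, map_mul, hn', hm', one_mul, one_mul,
          ← map_commutatorElement, commutatorElement_eq_one_iff_mul_comm.2 (mem_center_iff.1 hw z), map_one]
      rw [hσ'.perf] at h4
      have h5 : ∀ x : SU 6 F 2, x = 1 := by
        intro x
        obtain ⟨y, rfl⟩ := hθ x
        exact h4 (mem_top y)
      have h6 : Subsingleton (PSU 6 F 2) := ⟨fun a b => by
        obtain ⟨a, rfl⟩ := pr_surjective (n := 6) (F := F) (q := 2) a
        obtain ⟨b, rfl⟩ := pr_surjective (n := 6) (F := F) (q := 2) b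
        rw [h5 a, h5 b]⟩
      exact not_subsingleton (PSU 6 F 2) h6
  -- its order is four
  have hk : Nat.card θ.ker = 4 := by
    have c1 : Nat.card Γ = Nat.card σ.ker * Nat.card (PSU 6 F 2) := by
      rw [← Nat.card_congr (QuotientGroup.quotientKerEquivOfSurjective σ hσ'.surj).toEquiv, mul_comm]
      exact Subgroup.card_eq_card_quotient_mul_card_subgroup _
    have c2 : Nat.card (SU 6 F 2) = Nat.card (pr 6 F 2).ker * Nat.card (PSU 6 F 2) := by
      rw [← Nat.card_congr (QuotientGroup.quotientKerEquivOfSurjective (pr 6 F 2) pr_surjective).toEquiv, mul_comm]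
      exact Subgroup.card_eq_card_quotient_mul_card_subgroup _
    have c3 : Nat.card Γ = Nat.card θ.ker * Nat.card (SU 6 F 2) := by
      rw [← Nat.card_congr (QuotientGroup.quotientKerEquivOfSurjective θ hθ).toEquiv, mul_comm]
      exact Subgroup.card_eq_card_quotient_mul_card_subgroup _
    rw [h12] at c1
    rw [hpr3] at c2
    have hpos : 0 < Nat.card (PSU 6 F 2) := Nat.card_pos
    rw [c1, c2, ← mul_assoc] at c3
    have c4 := Nat.eq_of_mul_eq_mul_right hpos c3
    omega
  have hθ' : PCE θ := ⟨hθ, hcen, hσ'.perf⟩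
  have h2 : IsPGroup 2 θ.ker := IsPGroup.of_card (n := 2) (by rw [hk]; norm_num)
  intro g hg
  refine h (θ g) (fun hc => hg ?_) Γ θ hθ' h2 g rfl
  refine Cfsg.Agent.H109.US.mem_center_of_perfect hσ'.perf fun y => hcen ?_
  rw [MonoidHom.mem_ker, map_commutatorElement, commutatorElement_eq_one_iff_mul_comm]
  exact (mem_center_iff.1 hc _).symm

/-- the row for every field with four elements -/
theorem row_every (h : ∀ g : SU 6 F 2, g ∉ center (SU 6 F 2) → P g) {F' : Type u} [Field F'] [Fintype F']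
    (hF' : Fintype.card F' = 4) : RowN (PSU 6 F' 2) := by
  have e : Fintype.card F = Fintype.card F' := by rw [hF, hF']; norm_num
  exact (row_of hF h).congr (LieClassical.FieldTransfer.psuCongr 6 2 (FiniteField.ringEquivOfCardEq e))

end row

end Cfsg.Agent.H184.US
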